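import Mathlib

/-!
# Brauer–Leonard: the two real inequalities
-/

set_option autoImplicit false

namespace Cfsg.Agent.Lib.Helper26.BL

theorem arith1 (Q t r ν g : ℝ) (hQ : (t + 1) ^ 2 ≤ Q) (ht : 1 ≤ t) (hr : 1 ≤ r) (htg : t ≤ g)
    (hgν : g ≤ ν) (h : Q * (r ^ 2 + ν) - (r + g) ^ 2 < t * Q) : Q - t - 2 < g := by
  by_contra hcon
  push Not at hcon
  have hQ0 : 0 < Q := by nlinarith
  have h1 : 0 ≤ (g - t) * (Q - t - 2 - g) := mul_nonneg (by linarith) (by linarith)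
  have h2 : 0 ≤ (r - 1) * (Q - 1 - g) := mul_nonneg (by linarith) (by linarith)
  have h3 : 0 ≤ (Q - 1) * (r - 1) ^ 2 := mul_nonneg (by nlinarith) (sq_nonneg _)
  have h4 : Q * g ≤ Q * ν := mul_le_mul_of_nonneg_left hgν hQ0.le
  nlinarith

theorem arith2 (t E k g : ℝ) (ht : 2 ≤ t) (hE : t + 1 ≤ E) (htg : t ≤ g) (hgk : g ≤ k)
    (hg : g ≤ t ^ 2 - 2) :
    t * (t ^ 2 + t + 1) * (t ^ 2 + 1) ≤ (t ^ 2 + t + 1) * (E ^ 2 + t ^ 2 * k) - (E + t * g) ^ 2 := by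
  have h0 : (t ^ 2 + t + 1) * (t ^ 2 * g) ≤ (t ^ 2 + t + 1) * (t ^ 2 * k) :=
    mul_le_mul_of_nonneg_left (mul_le_mul_of_nonneg_left hgk (by positivity)) (by positivity)
  have h1 : 0 ≤ t ^ 2 * ((g - t) * (t ^ 2 - 2 - g)) :=
    mul_nonneg (by positivity) (mul_nonneg (by linarith) (by linarith))
  obtain ⟨δ, hδ, rfl⟩ : ∃ δ, 0 ≤ δ ∧ E = t + 1 + δ := ⟨E - t - 1, by linarith, by ring⟩
  have h2 : 0 ≤ δ * (t * (t ^ 2 - 2 - g)) := mul_nonneg hδ (mul_nonneg (by linarith) (by linarith))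
  have h3 : 0 ≤ (t ^ 2 - 2 * t) * (g - t) := mul_nonneg (by nlinarith) (by linarith)
  have h4 : 0 ≤ (t ^ 2 + t) * δ ^ 2 := by positivity
  have h5 : 0 ≤ δ * t := mul_nonneg hδ (by linarith)
  have h6 : 0 ≤ δ * t ^ 2 := mul_nonneg hδ (by positivity)
  have h7 : 0 ≤ δ * t ^ 3 := mul_nonneg hδ (by positivity)
  nlinarith

end Cfsg.Agent.Lib.Helper26.BL
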