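import Mathlib
import Cfsg.Agent.Lib.Helper3.Table
import Cfsg.Agent.Lib.Helper15.Extraspecial

/-!
# Brauer–Leonard: `L²`-norms of characters of `K = Z × V` (`Z` central) on the complement `V`
-/

set_option autoImplicit false

namespace Cfsg.Agent.Lib.Helper26.BL

open Cfsg Cfsg.Agent.Lib
open scoped ComplexConjugate

section basic
variable {K : Type*} [Group K] [Fintype K]

theorem sum_normSq (f : K → ℂ) :
    ((∑ k, ‖f k‖ ^ 2 : ℝ) : ℂ) = (Nat.card K : ℂ) * classInner f f := by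
  have hc : (Nat.card K : ℂ) ≠ 0 := by exact_mod_cast Nat.card_pos.ne'
  rw [classInner, ← mul_assoc, mul_inv_cancel₀ hc, one_mul]
  push_cast
  refine Finset.sum_congr rfl fun k _ => ?_
  rw [Complex.mul_conj, Complex.normSq_eq_norm_sq]
  push_cast
  rfl

variable [Fintype (IrrCharacter K)]

theorem classInner_comb (c d : IrrCharacter K → ℂ) :
    classInner (∑ ξ : IrrCharacter K, c ξ • (ξ : K → ℂ)) (∑ ξ : IrrCharacter K, d ξ • (ξ : K → ℂ)) =
      ∑ ξ : IrrCharacter K, c ξ * conj (d ξ) := by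
  rw [Helper3.classInner_sum_right]
  refine Finset.sum_congr rfl fun ξ _ => ?_
  rw [Helper3.classInner_smul_right, Helper3.classInner_sum_irr, mul_comm]

theorem sum_normSq_comb (c : IrrCharacter K → ℝ) :
    ∑ k, ‖(∑ ξ : IrrCharacter K, (c ξ : ℂ) • (ξ : K → ℂ)) k‖ ^ 2 =
      (Nat.card K : ℝ) * ∑ ξ : IrrCharacter K, c ξ ^ 2 := by
  have h := sum_normSq (∑ ξ : IrrCharacter K, (c ξ : ℂ) • (ξ : K → ℂ))
  rw [classInner_comb] at h
  have h2 : ∑ ξ : IrrCharacter K, (c ξ : ℂ) * conj (c ξ : ℂ) =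
      ((∑ ξ : IrrCharacter K, c ξ ^ 2 : ℝ) : ℂ) := by
    push_cast
    refine Finset.sum_congr rfl fun ξ _ => ?_
    rw [Complex.conj_ofReal, sq]
  rw [h2] at h
  exact_mod_cast h

end basic

section mV
variable {K : Type*} (V : Set K) [Fintype V]

/-- restriction to `V` as a linear map into the `L²` space -/
noncomputable def resV : (K → ℂ) →ₗ[ℂ] EuclideanSpace ℂ V :=
  (WithLp.linearEquiv 2 ℂ (V → ℂ)).symm.toLinearMap ∘ₗ
    (LinearMap.funLeft ℂ ℂ (Subtype.val : V → K))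

/-- the `L²`-norm over `V` -/
noncomputable def mV (f : K → ℂ) : ℝ := ‖resV V f‖

theorem mV_sq (f : K → ℂ) : mV V f ^ 2 = ∑ v : V, ‖f v‖ ^ 2 := by
  rw [mV, EuclideanSpace.norm_sq_eq]
  rfl

theorem mV_nonneg (f : K → ℂ) : 0 ≤ mV V f := norm_nonneg _

theorem mV_add (f g : K → ℂ) : mV V (f + g) ≤ mV V f + mV V g := by
  rw [mV, map_add]; exact norm_add_le _ _

theorem mV_smul (c : ℂ) (f : K → ℂ) : mV V (c • f) = ‖c‖ * mV V f := by
  rw [mV, map_smul, norm_smul]; rfl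

theorem mV_sum_le {ι : Type*} (s : Finset ι) (f : ι → K → ℂ) :
    mV V (∑ i ∈ s, f i) ≤ ∑ i ∈ s, mV V (f i) := by
  rw [mV, map_sum]; exact norm_sum_le _ _

end mV

section compl
variable {K : Type*} [Group K] [Fintype K] (Z V : Subgroup K) [Fintype V]

theorem sum_eq_of_compl (hc : Subgroup.IsComplement' Z V) (F : K → ℝ)
    (hF : ∀ z ∈ Z, ∀ k : K, F (z * k) = F k) :
    ∑ k, F k = (Nat.card Z : ℝ) * ∑ v : V, F v := by
  classical
  have := Fintype.ofFinite Z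
  have hb : Function.Bijective (fun x : Z × V => (x.1 : K) * (x.2 : K)) := hc
  rw [← (Equiv.ofBijective _ hb).sum_comp, Fintype.sum_prod_type]
  simp only [Equiv.ofBijective_apply]
  have : ∀ z : Z, ∑ v : V, F ((z : K) * (v : K)) = ∑ v : V, F v := fun z =>
    Finset.sum_congr rfl fun v _ => hF z z.2 v
  rw [Finset.sum_congr rfl (fun z _ => this z), Finset.sum_const, Finset.card_univ, nsmul_eq_mul,
    Nat.card_eq_fintype_card]

omit [Fintype K] [Fintype V] in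
theorem card_eq_of_compl (hc : Subgroup.IsComplement' Z V) :
    (Nat.card K : ℝ) = (Nat.card Z : ℝ) * (Nat.card V : ℝ) := by
  have := hc.card_mul_card
  exact_mod_cast this.symm

theorem norm_irr_central {ξ : K → ℂ} (hξ : IsIrrCharacter K ξ) {z : K} (hz : z ∈ Subgroup.center K)
    (k : K) : ‖ξ (z * k)‖ = ‖ξ k‖ := by
  have h1 := Helper15.irr_mul_central hξ k hz
  have h2 := Helper15.irr_central_norm hξ hz
  have h3 : ‖ξ z‖ = ‖ξ 1‖ := by
    have : ‖ξ z‖ ^ 2 = ‖ξ 1‖ ^ 2 := by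
      have e := congrArg norm h2
      rw [norm_mul, norm_mul, RCLike.norm_conj] at e
      nlinarith [e]
    exact (sq_eq_sq₀ (norm_nonneg _) (norm_nonneg _)).1 this
  have h4 : ‖ξ 1‖ ≠ 0 := norm_ne_zero_iff.2 (Helper15.irr_one_ne_zero hξ)
  have h5 := congrArg norm h1
  rw [norm_mul, norm_mul, h3] at h5
  rw [(Subgroup.mem_center_iff.1 hz k).symm]
  exact mul_right_cancel₀ h4 h5

theorem mV_irr (hZ : Z ≤ Subgroup.center K) (hc : Subgroup.IsComplement' Z V) {ξ : K → ℂ}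
    (hξ : IsIrrCharacter K ξ) : mV (V : Set K) ξ = Real.sqrt (Nat.card V) := by
  have h1 := sum_eq_of_compl Z V hc (fun k => ‖ξ k‖ ^ 2)
    (fun z hz k => by simp only [norm_irr_central hξ (hZ hz) k])
  have h2 := sum_normSq ξ
  rw [Helper3.classInner_irr_self hξ, mul_one] at h2
  have h3 : (∑ k, ‖ξ k‖ ^ 2 : ℝ) = Nat.card K := by exact_mod_cast h2
  rw [h3, card_eq_of_compl Z V hc] at h1
  have hz0 : (Nat.card Z : ℝ) ≠ 0 := by exact_mod_cast Nat.card_pos.ne'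
  have h4 : (Nat.card V : ℝ) = ∑ v : V, ‖ξ v‖ ^ 2 := mul_left_cancel₀ hz0 h1
  have h5 := mV_sq (V : Set K) ξ
  rw [h4]
  rw [← Real.sqrt_sq (mV_nonneg (V : Set K) ξ), h5]
  rfl

variable [Fintype (IrrCharacter K)]

open scoped Classical in
/-- The main bound: the `L²`-norm over `V` of a nonnegative combination of irreducible characters, the part over a
set `T` of characters trivial on `Z` being computed exactly and the rest estimated by the triangle inequality. -/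
theorem sumV_le (hZ : Z ≤ Subgroup.center K) (hc : Subgroup.IsComplement' Z V)
    (c : IrrCharacter K → ℝ) (hc0 : ∀ ξ, 0 ≤ c ξ) (T : Finset (IrrCharacter K))
    (hT : ∀ ξ ∈ T, ∀ z ∈ Z, (ξ : K → ℂ) z = (ξ : K → ℂ) 1) :
    ∑ v : V, ‖(∑ ξ : IrrCharacter K, (c ξ : ℂ) • (ξ : K → ℂ)) v‖ ^ 2 ≤
      (Nat.card V : ℝ) * (Real.sqrt (∑ ξ ∈ T, c ξ ^ 2) + ∑ ξ ∈ Tᶜ, c ξ) ^ 2 := by
  set β : K → ℂ := ∑ ξ ∈ T, (c ξ : ℂ) • (ξ : K → ℂ) with hβ
  set γ : K → ℂ := ∑ ξ ∈ Tᶜ, (c ξ : ℂ) • (ξ : K → ℂ) with hγ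
  have hsplit : (∑ ξ : IrrCharacter K, (c ξ : ℂ) • (ξ : K → ℂ)) = β + γ := by
    rw [hβ, hγ, Finset.sum_add_sum_compl]
  have hz0 : (Nat.card Z : ℝ) ≠ 0 := by exact_mod_cast Nat.card_pos.ne'
  -- β
  have hβinv : ∀ z ∈ Z, ∀ k : K, β (z * k) = β k := by
    intro z hz k
    simp only [hβ, Finset.sum_apply, Pi.smul_apply]
    refine Finset.sum_congr rfl fun ξ hξ => ?_
    congr 1
    rw [(Subgroup.mem_center_iff.1 (hZ hz) k).symm]
    exact Helper80.char_mul_of_mem_ker (Helper15.irr_char ξ.2) (hT ξ hξ z hz) k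
  have hβ1 := sum_eq_of_compl Z V hc (fun k => ‖β k‖ ^ 2)
    (fun z hz k => by simp only [hβinv z hz k])
  have hβ2 : β = ∑ ξ : IrrCharacter K, ((if ξ ∈ T then c ξ else 0 : ℝ) : ℂ) • (ξ : K → ℂ) := by
    rw [hβ, ← Finset.sum_filter_add_sum_filter_not Finset.univ (· ∈ T)]
    have e1 : ∑ ξ ∈ Finset.univ.filter (fun ξ => ¬ ξ ∈ T),
        ((if ξ ∈ T then c ξ else 0 : ℝ) : ℂ) • (ξ : K → ℂ) = 0 := by
      apply Finset.sum_eq_zero
      intro ξ hξ
      rw [Finset.mem_filter] at hξ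
      rw [if_neg hξ.2]; simp
    rw [e1, add_zero]
    have e2 : Finset.univ.filter (· ∈ T) = T := by ext; simp
    rw [e2]
    refine Finset.sum_congr rfl fun ξ hξ => ?_
    rw [if_pos hξ]
  have hβ3 : ∑ k, ‖β k‖ ^ 2 = (Nat.card K : ℝ) * ∑ ξ ∈ T, c ξ ^ 2 := by
    rw [hβ2, sum_normSq_comb]
    congr 1
    rw [← Finset.sum_filter_add_sum_filter_not Finset.univ (· ∈ T)]
    have e1 : ∑ ξ ∈ Finset.univ.filter (fun ξ => ¬ ξ ∈ T), (if ξ ∈ T then c ξ else 0 : ℝ) ^ 2 = 0 := by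
      apply Finset.sum_eq_zero
      intro ξ hξ
      rw [Finset.mem_filter] at hξ
      rw [if_neg hξ.2]; simp
    rw [e1, add_zero]
    have e2 : Finset.univ.filter (· ∈ T) = T := by ext; simp
    rw [e2]
    refine Finset.sum_congr rfl fun ξ hξ => ?_
    rw [if_pos hξ]
  have hβ4 : mV (V : Set K) β = Real.sqrt (Nat.card V) * Real.sqrt (∑ ξ ∈ T, c ξ ^ 2) := by
    rw [hβ3, card_eq_of_compl Z V hc, mul_assoc] at hβ1
    have h4 := mul_left_cancel₀ hz0 hβ1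
    rw [← Real.sqrt_mul (Nat.cast_nonneg _), h4, ← Real.sqrt_sq (mV_nonneg (V : Set K) β), mV_sq]
    rfl
  -- γ
  have hγ1 : mV (V : Set K) γ ≤ Real.sqrt (Nat.card V) * ∑ ξ ∈ Tᶜ, c ξ := by
    rw [hγ]
    refine (mV_sum_le _ _ _).trans ?_
    rw [Finset.mul_sum]
    refine Finset.sum_le_sum fun ξ _ => ?_
    rw [mV_smul, mV_irr Z V hZ hc ξ.2, Complex.norm_real, Real.norm_of_nonneg (hc0 ξ), mul_comm]
  have hle : mV (V : Set K) (β + γ) ≤
      Real.sqrt (Nat.card V) * (Real.sqrt (∑ ξ ∈ T, c ξ ^ 2) + ∑ ξ ∈ Tᶜ, c ξ) := by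
    refine (mV_add _ _ _).trans ?_
    rw [hβ4, mul_add]
    linarith
  rw [hsplit]
  have h6 := mV_sq (V : Set K) (β + γ)
  have h7 : (∑ v : V, ‖(β + γ) v‖ ^ 2) = mV (V : Set K) (β + γ) ^ 2 := h6.symm
  rw [h7]
  calc mV (V : Set K) (β + γ) ^ 2
      ≤ (Real.sqrt (Nat.card V) * (Real.sqrt (∑ ξ ∈ T, c ξ ^ 2) + ∑ ξ ∈ Tᶜ, c ξ)) ^ 2 :=
        pow_le_pow_left₀ (mV_nonneg _ _) hle 2
    _ = _ := by rw [mul_pow, Real.sq_sqrt (Nat.cast_nonneg _)]

end compl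

end Cfsg.Agent.Lib.Helper26.BL
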