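import Mathlib
import Cfsg.Prelude.Def_Characters

/-!
# Brauer–Leonard: the basic inequality for a TI-subset
-/

set_option autoImplicit false

namespace Cfsg.Agent.Lib.Helper26.BL

open Cfsg

open scoped Classical in
/-- If `D` is a TI-subset whose "normaliser" is contained in `N`, a nonnegative class function `F` satisfies
`|G| ∑_D F + |N| F(1) ≤ |N| ∑_G F`. -/
theorem ti_ineq {G : Type*} [Group G] [Fintype G] (N : Subgroup G) (D : Set G) (h1 : (1 : G) ∉ D)
    (hTI : ∀ g : G, ∀ d ∈ D, g * d * g⁻¹ ∈ D → g ∈ N)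
    (F : G → ℝ) (hF0 : ∀ g, 0 ≤ F g) (hF : ∀ g h : G, F (h * g * h⁻¹) = F g) :
    (Nat.card G : ℝ) * ∑ d ∈ Finset.univ.filter (· ∈ D), F d + (Nat.card N : ℝ) * F 1
      ≤ (Nat.card N : ℝ) * ∑ g, F g := by
  have key : ∀ g : G, ∑ d ∈ Finset.univ.filter (· ∈ D), F d =
      ∑ z : G, if g⁻¹ * z * g ∈ D then F z else 0 := by
    intro g
    rw [Finset.sum_filter]
    apply Fintype.sum_equiv (MulAut.conj g).toEquiv
    intro d
    have e : g⁻¹ * (g * d * g⁻¹) * g = d := by group
    simp only [MulEquiv.toEquiv_eq_coe, EquivLike.coe_coe, MulAut.conj_apply, e, hF]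
  have h2 : (Nat.card G : ℝ) * ∑ d ∈ Finset.univ.filter (· ∈ D), F d =
      ∑ z : G, F z * ((Finset.univ.filter (fun g : G => g⁻¹ * z * g ∈ D)).card : ℝ) := by
    have : (Nat.card G : ℝ) * ∑ d ∈ Finset.univ.filter (· ∈ D), F d =
        ∑ _g : G, ∑ d ∈ Finset.univ.filter (· ∈ D), F d := by
      rw [Finset.sum_const, Finset.card_univ, nsmul_eq_mul, Nat.card_eq_fintype_card]
    rw [this]
    rw [Finset.sum_congr rfl (fun g _ => key g), Finset.sum_comm]
    refine Finset.sum_congr rfl fun z _ => ?_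
    rw [← Finset.sum_filter, Finset.sum_const, nsmul_eq_mul, mul_comm]
  have hcnt : ∀ z : G, (Finset.univ.filter (fun g : G => g⁻¹ * z * g ∈ D)).card ≤ Nat.card N := by
    intro z
    rcases (Finset.univ.filter (fun g : G => g⁻¹ * z * g ∈ D)).eq_empty_or_nonempty with h | ⟨g0, hg0⟩
    · rw [h]; simp
    · rw [Finset.mem_filter] at hg0
      have hmem : ∀ g ∈ Finset.univ.filter (fun g : G => g⁻¹ * z * g ∈ D), g⁻¹ * g0 ∈ N := by
        intro g hg
        rw [Finset.mem_filter] at hg
        apply hTI _ _ hg0.2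
        have e : g⁻¹ * g0 * (g0⁻¹ * z * g0) * (g⁻¹ * g0)⁻¹ = g⁻¹ * z * g := by group
        rw [e]; exact hg.2
      rw [Nat.card_eq_fintype_card, ← Finset.card_univ]
      refine Finset.card_le_card_of_injOn
        (fun g => if h : g⁻¹ * g0 ∈ N then (⟨g⁻¹ * g0, h⟩ : N) else 1) (fun _ _ => Finset.mem_univ _) ?_
      intro a ha b hb hab
      have ha' := hmem a ha
      have hb' := hmem b hb
      simp only [ha', hb', dif_pos] at hab
      have := congrArg Subtype.val hab
      simpa using this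
  have hcnt1 : (Finset.univ.filter (fun g : G => g⁻¹ * (1 : G) * g ∈ D)).card = 0 := by
    rw [Finset.card_eq_zero, Finset.filter_eq_empty_iff]
    intro g _
    simpa using h1
  rw [h2, Finset.mul_sum]
  have h3 : ∑ z : G, F z * ((Finset.univ.filter (fun g : G => g⁻¹ * z * g ∈ D)).card : ℝ)
      ≤ ∑ z : G, (if z = 1 then 0 else (Nat.card N : ℝ) * F z) := by
    refine Finset.sum_le_sum fun z _ => ?_
    split_ifs with hz
    · rw [hz, hcnt1]; simp
    · rw [mul_comm]
      exact mul_le_mul_of_nonneg_right (by exact_mod_cast hcnt z) (hF0 z)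
  have h4 : ∑ z : G, (if z = 1 then 0 else (Nat.card N : ℝ) * F z) + (Nat.card N : ℝ) * F 1 =
      ∑ z : G, (Nat.card N : ℝ) * F z := by
    rw [← Finset.add_sum_erase Finset.univ (fun z => (Nat.card N : ℝ) * F z) (Finset.mem_univ 1)]
    rw [← Finset.add_sum_erase Finset.univ (fun z => if z = 1 then 0 else (Nat.card N : ℝ) * F z)
      (Finset.mem_univ 1)]
    simp only [if_true, zero_add]
    rw [add_comm]
    congr 1
    refine Finset.sum_congr rfl fun z hz => ?_
    rw [if_neg (Finset.ne_of_mem_erase hz)]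
  linarith

end Cfsg.Agent.Lib.Helper26.BL
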