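import Mathlib
import Cfsg.Agent.Lib.Helper26.BL.TI
import Cfsg.Agent.Lib.Helper26.BL.NormV
import Cfsg.Agent.Lib.Helper15.CharTools

/-!
# Brauer–Leonard: the configuration `P ≤ C = P × V ⊴ N`, the main inequality and the orbit lemma
-/

set_option autoImplicit false

namespace Cfsg.Agent.Lib.Helper26.BL

open Cfsg Cfsg.Agent.Lib
open scoped ComplexConjugate

/-- The configuration: `P` central in `C`, `C = P × V`, `N` normalises `P` and `C` and acts semiregularly on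
`P \ 1` modulo `C`, `C \ V` is a TI-subset with normaliser in `N`, and `|N : C| = t`. -/
structure Data {G : Type*} [Group G] (P C N : Subgroup G) (V : Subgroup C) (t : ℕ) : Prop where
  hPC : P ≤ C
  central : ∀ x ∈ P, ∀ c ∈ C, x * c = c * x
  compl : Subgroup.IsComplement' (P.subgroupOf C) V
  normC : ∀ y ∈ N, ∀ c ∈ C, y * c * y⁻¹ ∈ C
  normP : ∀ y ∈ N, ∀ x ∈ P, y * x * y⁻¹ ∈ P
  ti : ∀ g : G, ∀ d : C, d ∉ V → ∀ h : g * d * g⁻¹ ∈ C, (⟨g * d * g⁻¹, h⟩ : C) ∉ V → g ∈ N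
  free : ∀ y ∈ N, ∀ x ∈ P, x ≠ 1 → y * x * y⁻¹ = x → y ∈ C
  card : Nat.card N = t * Nat.card C

section
variable {G : Type*} [Group G] [Fintype G] {P C N : Subgroup G} {V : Subgroup C} {t : ℕ}

omit [Fintype G] in
theorem Data.le_center (h : Data P C N V t) : P.subgroupOf C ≤ Subgroup.center C := by
  intro z hz
  rw [Subgroup.mem_center_iff]
  intro c
  apply Subtype.ext
  exact (h.central z hz c c.2).symm

omit [Fintype G] in
theorem Data.card_sub (h : Data P C N V t) : Nat.card (P.subgroupOf C) = Nat.card P :=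
  Nat.card_congr (Subgroup.subgroupOfEquivOfLe h.hPC).toEquiv

omit [Fintype G] in
theorem Data.card_C (h : Data P C N V t) : Nat.card C = Nat.card P * Nat.card V := by
  rw [← h.card_sub]; exact h.compl.card_mul_card.symm

theorem sum_sub_eq [Fintype C] [Fintype V] (F : G → ℝ)
    [DecidablePred (· ∈ {g : G | ∃ h : g ∈ C, (⟨g, h⟩ : C) ∉ V})] :
    ∑ d ∈ Finset.univ.filter (· ∈ {g : G | ∃ h : g ∈ C, (⟨g, h⟩ : C) ∉ V}), F d =
      ∑ k : C, F k - ∑ v : V, F v := by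
  classical
  have h1 : ∑ k : C, F k = ∑ k ∈ Finset.univ.filter (fun k : C => k ∈ V), F k +
      ∑ k ∈ Finset.univ.filter (fun k : C => ¬ k ∈ V), F k :=
    (Finset.sum_filter_add_sum_filter_not _ _ _).symm
  have h2 : ∑ k ∈ Finset.univ.filter (fun k : C => k ∈ V), F k = ∑ v : V, F v := by
    rw [Finset.sum_subtype (Finset.univ.filter (fun k : C => k ∈ V)) (p := fun k => k ∈ V)
      (by simp) (fun k : C => F k)]
  have h3 : ∑ k ∈ Finset.univ.filter (fun k : C => ¬ k ∈ V), F k =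
      ∑ d ∈ Finset.univ.filter (· ∈ {g : G | ∃ h : g ∈ C, (⟨g, h⟩ : C) ∉ V}), F d := by
    refine Finset.sum_bij (fun k _ => (k : G)) ?_ ?_ ?_ ?_
    · intro k hk
      rw [Finset.mem_filter] at hk ⊢
      exact ⟨Finset.mem_univ _, k.2, hk.2⟩
    · intro a _ b _ hab
      exact Subtype.ext hab
    · intro d hd
      rw [Finset.mem_filter] at hd
      obtain ⟨hdC, hdV⟩ := hd.2
      exact ⟨⟨d, hdC⟩, by rw [Finset.mem_filter]; exact ⟨Finset.mem_univ _, hdV⟩, rfl⟩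
    · intro _ _; rfl
  rw [h1, h2, h3]; ring

variable [Fintype C] [Fintype (IrrCharacter C)]

open scoped Classical in
/-- **The main inequality.** -/
theorem Data.main_ineq (h : Data P C N V t) (Ψ : G → ℂ) (hΨ : IsClassFunction G Ψ) (hΨ1 : Ψ 1 ≠ 0)
    (c : IrrCharacter C → ℝ) (hc0 : ∀ ξ, 0 ≤ c ξ)
    (hexp : (fun k : C => Ψ k) = ∑ ξ : IrrCharacter C, (c ξ : ℂ) • (ξ : C → ℂ))
    (T : Finset (IrrCharacter C))
    (hT : ∀ ξ ∈ T, ∀ z : C, (z : G) ∈ P → (ξ : C → ℂ) z = (ξ : C → ℂ) 1)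
    (nrm : ℝ) (hn : ∑ g, ‖Ψ g‖ ^ 2 = (Nat.card G : ℝ) * nrm) :
    (Nat.card P : ℝ) * ∑ ξ, c ξ ^ 2 - (Real.sqrt (∑ ξ ∈ T, c ξ ^ 2) + ∑ ξ ∈ Tᶜ, c ξ) ^ 2 <
      t * (Nat.card P : ℝ) * nrm := by
  have := Fintype.ofFinite V
  have hti0 := ti_ineq N {g : G | ∃ h : g ∈ C, (⟨g, h⟩ : C) ∉ V}
    (by rintro ⟨h1, h2⟩; exact h2 (V.one_mem))
    (by
      rintro g d ⟨hd, hdV⟩ ⟨hg, hgV⟩
      exact h.ti g ⟨d, hd⟩ hdV hg hgV)
    (fun g => ‖Ψ g‖ ^ 2) (fun g => by positivity) (fun g x => by simp only [hΨ g x])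
  have hti : (Nat.card G : ℝ) * (∑ k : C, ‖Ψ k‖ ^ 2 - ∑ v : V, ‖Ψ ((v : C) : G)‖ ^ 2) +
      (Nat.card N : ℝ) * ‖Ψ 1‖ ^ 2 ≤ (Nat.card N : ℝ) * ((Nat.card G : ℝ) * nrm) := by
    rw [← hn, ← sum_sub_eq (C := C) (V := V) (fun g => ‖Ψ g‖ ^ 2)]
    convert hti0
  have hS1 : ∑ k : C, ‖Ψ k‖ ^ 2 = (Nat.card C : ℝ) * ∑ ξ, c ξ ^ 2 := by
    rw [← sum_normSq_comb, ← hexp]
  have hS2 : ∑ v : V, ‖Ψ ((v : C) : G)‖ ^ 2 ≤
      (Nat.card V : ℝ) * (Real.sqrt (∑ ξ ∈ T, c ξ ^ 2) + ∑ ξ ∈ Tᶜ, c ξ) ^ 2 := by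
    have := sumV_le (P.subgroupOf C) V h.le_center h.compl c hc0 T
      (fun ξ hξ z hz => hT ξ hξ z hz)
    rw [← hexp] at this
    exact this
  rw [hS1] at hti
  have hcN : (Nat.card N : ℝ) = t * ((Nat.card P : ℝ) * (Nat.card V : ℝ)) := by
    have := h.card; rw [h.card_C] at this; exact_mod_cast this
  have hcC : (Nat.card C : ℝ) = (Nat.card P : ℝ) * (Nat.card V : ℝ) := by
    exact_mod_cast h.card_C
  have hG : (0 : ℝ) < Nat.card G := by exact_mod_cast Nat.card_pos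
  have hV : (0 : ℝ) < Nat.card V := by exact_mod_cast Nat.card_pos
  have hN : (0 : ℝ) < Nat.card N := by exact_mod_cast Nat.card_pos
  have hpos : 0 < (Nat.card N : ℝ) * ‖Ψ 1‖ ^ 2 := by
    have : 0 < ‖Ψ 1‖ := norm_pos_iff.2 hΨ1
    positivity
  set B := (Real.sqrt (∑ ξ ∈ T, c ξ ^ 2) + ∑ ξ ∈ Tᶜ, c ξ) ^ 2 with hB
  set S := ∑ ξ, c ξ ^ 2 with hS
  have h5 : (Nat.card G : ℝ) * ((Nat.card P : ℝ) * (Nat.card V : ℝ) * S - (Nat.card V : ℝ) * B) <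
      t * ((Nat.card P : ℝ) * (Nat.card V : ℝ)) * ((Nat.card G : ℝ) * nrm) := by
    rw [hcC] at hti
    rw [← hcN]
    have : (Nat.card G : ℝ) * ((Nat.card P : ℝ) * (Nat.card V : ℝ) * S - (Nat.card V : ℝ) * B) ≤
        (Nat.card G : ℝ) * ((Nat.card P : ℝ) * (Nat.card V : ℝ) * S - ∑ v : V, ‖Ψ ((v : C) : G)‖ ^ 2) :=
      mul_le_mul_of_nonneg_left (by linarith) hG.le
    linarith
  have h6 : (Nat.card G : ℝ) * (Nat.card V : ℝ) * ((Nat.card P : ℝ) * S - B) <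
      (Nat.card G : ℝ) * (Nat.card V : ℝ) * (t * (Nat.card P : ℝ) * nrm) := by
    nlinarith [h5]
  exact lt_of_mul_lt_mul_left h6 (by positivity)

end

end Cfsg.Agent.Lib.Helper26.BL
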