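import Mathlib
import Cfsg.Agent.Lib.Helper26.BL.Data

/-!
# Brauer–Leonard: `N`-orbits of the irreducible characters of `C` that are nontrivial on `P`
-/

set_option autoImplicit false

namespace Cfsg.Agent.Lib.Helper26.BL

open Cfsg Cfsg.Agent.Lib
open scoped ComplexConjugate

/-- conjugation by an element normalising `C`, as an automorphism of `C` -/
def conjE {G : Type*} [Group G] (C : Subgroup G) (y : G) (h1 : ∀ c ∈ C, y * c * y⁻¹ ∈ C)
    (h2 : ∀ c ∈ C, y⁻¹ * c * y ∈ C) : C ≃* C where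
  toFun c := ⟨y * c * y⁻¹, h1 c c.2⟩
  invFun c := ⟨y⁻¹ * c * y, h2 c c.2⟩
  left_inv c := by ext; simp [mul_assoc]
  right_inv c := by ext; simp [mul_assoc]
  map_mul' a b := by ext; simp [mul_assoc]

section
variable {G : Type*} [Group G] [Finite G] {P C N : Subgroup G} {V : Subgroup C} {t : ℕ}

omit [Finite G] in
theorem Data.normC' (h : Data P C N V t) {y : G} (hy : y ∈ N) : ∀ c ∈ C, y⁻¹ * c * y ∈ C := by
  intro c hc
  have := h.normC y⁻¹ (N.inv_mem hy) c hc
  rwa [inv_inv] at this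

omit [Finite G] in
theorem Data.normP' (h : Data P C N V t) {y : G} (hy : y ∈ N) : ∀ c ∈ P, y⁻¹ * c * y ∈ P := by
  intro c hc
  have := h.normP y⁻¹ (N.inv_mem hy) c hc
  rwa [inv_inv] at this

/-- the stabiliser in `N` of an irreducible character of `C` nontrivial on `P` is `C` -/
theorem Data.stab (h : Data P C N V t) {ξ : C → ℂ} (hξ : IsIrrCharacter C ξ)
    (hnt : ∃ z : C, (z : G) ∈ P ∧ ξ z ≠ ξ 1) (w : G) (hw : w ∈ N)
    (hst : ∀ c : C, ξ ⟨w * c * w⁻¹, h.normC w hw c c.2⟩ = ξ c) : w ∈ C := by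
  by_contra hwC
  let f : P → P := fun x => ⟨w * x * w⁻¹ * (x : G)⁻¹, P.mul_mem (h.normP w hw x x.2) (P.inv_mem x.2)⟩
  have hinj : Function.Injective f := by
    intro a b hab
    have e : w * a * w⁻¹ * (a : G)⁻¹ = w * b * w⁻¹ * (b : G)⁻¹ := congrArg Subtype.val hab
    have e2 : w * ((b : G)⁻¹ * a) * w⁻¹ = (b : G)⁻¹ * a := by
      have e3 : w * a * w⁻¹ = w * b * w⁻¹ * (b : G)⁻¹ * a := by
        rw [← e]; group
      calc w * ((b : G)⁻¹ * a) * w⁻¹ = (w * b * w⁻¹)⁻¹ * (w * a * w⁻¹) := by group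
        _ = (w * b * w⁻¹)⁻¹ * (w * b * w⁻¹ * (b : G)⁻¹ * a) := by rw [e3]
        _ = (b : G)⁻¹ * a := by group
    by_contra hne
    apply hwC
    refine h.free w hw _ (P.mul_mem (P.inv_mem b.2) a.2) ?_ e2
    intro h1
    apply hne
    apply Subtype.ext
    have := inv_mul_eq_one.1 h1
    exact this.symm
  have hsurj : Function.Surjective f := Finite.injective_iff_surjective.1 hinj
  obtain ⟨z, hzP, hz⟩ := hnt
  obtain ⟨x, hx⟩ := hsurj ⟨z, hzP⟩
  apply hz
  let xC : C := ⟨x, h.hPC x.2⟩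
  let a : C := ⟨w * x * w⁻¹, h.normC w hw x (h.hPC x.2)⟩
  have hxc : xC ∈ Subgroup.center C := h.le_center (by rw [Subgroup.mem_subgroupOf]; exact x.2)
  have hxc' : xC⁻¹ ∈ Subgroup.center C := (Subgroup.center C).inv_mem hxc
  have h1 := Helper15.irr_mul_central hξ a hxc'
  have h2 : ξ a = ξ xC := hst xC
  have h3 : ξ xC⁻¹ = conj (ξ xC) := Helper3.IsCharacter.apply_inv (Helper15.irr_char hξ) xC
  have h4 := Helper15.irr_central_norm hξ hxc
  rw [h2, h3, h4] at h1
  have h5 : a * xC⁻¹ = z := by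
    apply Subtype.ext
    have hx' : (f x : G) = z := congrArg Subtype.val hx
    exact hx'
  rw [h5] at h1
  exact mul_right_cancel₀ (Helper15.irr_one_ne_zero hξ) h1

end

section
variable {G : Type*} [Group G] [Fintype G] {P C N : Subgroup G} {V : Subgroup C} {t : ℕ}
variable [Fintype C]

open scoped Classical in
/-- the orbit lemma -/
theorem Data.orbit (h : Data P C N V t) (φ : G → ℂ) (hφ : IsClassFunction G φ) (ξ : IrrCharacter C)
    (hnt : ∃ z : C, (z : G) ∈ P ∧ (ξ : C → ℂ) z ≠ (ξ : C → ℂ) 1) :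
    ∃ O : Finset (IrrCharacter C), t ≤ O.card ∧ ∀ ζ ∈ O,
      (∃ z : C, (z : G) ∈ P ∧ (ζ : C → ℂ) z ≠ (ζ : C → ℂ) 1) ∧ (ζ : C → ℂ) 1 = (ξ : C → ℂ) 1 ∧
      classInner (fun k : C => φ k) ζ = classInner (fun k : C => φ k) ξ := by
  have := Fintype.ofFinite N
  let e : N → (C ≃* C) := fun y => conjE C y (h.normC y y.2) (h.normC' y.2)
  let Φ : N → IrrCharacter C := fun y => ⟨(ξ : C → ℂ) ∘ e y, Helper15.irr_comp_equiv _ ξ.2⟩
  refine ⟨Finset.univ.image Φ, ?_, ?_⟩
  · have hfib : ∀ a ∈ Finset.univ.image Φ,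
        (Finset.univ.filter (fun y => Φ y = a)).card ≤ Nat.card C := by
      intro a ha
      obtain ⟨y0, -, rfl⟩ := Finset.mem_image.1 ha
      have hmem : ∀ y : N, Φ y = Φ y0 → (y : G) * (y0 : G)⁻¹ ∈ C := by
        intro y hy
        refine h.stab ξ.2 hnt _ (N.mul_mem y.2 (N.inv_mem y0.2)) ?_
        intro c
        have h1 : ((ξ : C → ℂ) ∘ e y) ⟨(y0 : G)⁻¹ * c * y0, h.normC' y0.2 c c.2⟩ =
            ((ξ : C → ℂ) ∘ e y0) ⟨(y0 : G)⁻¹ * c * y0, h.normC' y0.2 c c.2⟩ :=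
          congrFun (congrArg Subtype.val hy) _
        simp only [Function.comp_apply] at h1
        have e1 : e y ⟨(y0 : G)⁻¹ * c * y0, h.normC' y0.2 c c.2⟩ =
            ⟨(y : G) * (y0 : G)⁻¹ * c * ((y : G) * (y0 : G)⁻¹)⁻¹,
              h.normC _ (N.mul_mem y.2 (N.inv_mem y0.2)) c c.2⟩ := by
          apply Subtype.ext
          show (y : G) * ((y0 : G)⁻¹ * c * y0) * (y : G)⁻¹ = _
          group
        have e2 : e y0 ⟨(y0 : G)⁻¹ * c * y0, h.normC' y0.2 c c.2⟩ = c := by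
          apply Subtype.ext
          show (y0 : G) * ((y0 : G)⁻¹ * c * y0) * (y0 : G)⁻¹ = _
          group
        rw [e1, e2] at h1
        exact h1
      rw [Nat.card_eq_fintype_card, ← Finset.card_univ]
      refine Finset.card_le_card_of_injOn
        (fun y => if hy : (y : G) * (y0 : G)⁻¹ ∈ C then (⟨(y : G) * (y0 : G)⁻¹, hy⟩ : C) else 1)
        (fun _ _ => Finset.mem_univ _) ?_
      intro a ha b hb hab
      have ha' := hmem a (Finset.mem_filter.1 ha).2
      have hb' := hmem b (Finset.mem_filter.1 hb).2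
      simp only [ha', hb', dif_pos] at hab
      have := congrArg Subtype.val hab
      apply Subtype.ext
      simpa using this
    have h1 := Finset.card_le_mul_card_image (s := (Finset.univ : Finset N)) (f := Φ) (Nat.card C) hfib
    rw [Finset.card_univ, ← Nat.card_eq_fintype_card, h.card, mul_comm] at h1
    exact Nat.le_of_mul_le_mul_left h1 Nat.card_pos
  · intro ζ hζ
    obtain ⟨y, -, rfl⟩ := Finset.mem_image.1 hζ
    refine ⟨?_, ?_, ?_⟩
    · obtain ⟨z, hzP, hz⟩ := hnt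
      refine ⟨⟨(y : G)⁻¹ * z * y, h.normC' y.2 z z.2⟩, h.normP' y.2 z hzP, ?_⟩
      show (ξ : C → ℂ) (e y _) ≠ (ξ : C → ℂ) (e y 1)
      rw [map_one]
      have e1 : e y ⟨(y : G)⁻¹ * z * y, h.normC' y.2 z z.2⟩ = z := by
        apply Subtype.ext
        show (y : G) * ((y : G)⁻¹ * z * y) * (y : G)⁻¹ = _
        group
      rw [e1]; exact hz
    · show (ξ : C → ℂ) (e y 1) = _
      rw [map_one]
    · have e1 : (fun k : C => φ k) = (fun k : C => φ k) ∘ e y := by
        funext k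
        exact (hφ k y).symm
      show classInner (fun k : C => φ k) ((ξ : C → ℂ) ∘ e y) = _
      conv_lhs => rw [e1]
      exact Helper15.classInner_comp_equiv _ _ _

end

end Cfsg.Agent.Lib.Helper26.BL
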