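import Mathlib
import Cfsg.Agent.Lib.Helper26.BL.Orbit
import Cfsg.Agent.Lib.Helper26.Virtual

/-!
# Brauer–Leonard: multiplicities, degrees and sums over `P`
-/

set_option autoImplicit false

namespace Cfsg.Agent.Lib.Helper26.BL

open Cfsg Cfsg.Agent.Lib
open scoped ComplexConjugate

section coef
variable {K : Type*} [Group K] [Fintype K]

/-- the multiplicity of `ξ` in `κ` -/
noncomputable def coef (κ : K → ℂ) (ξ : IrrCharacter K) : ℕ := ⌊(classInner κ ξ).re⌋₊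

theorem coef_spec {κ : K → ℂ} (hκ : IsCharacter K κ) (ξ : IrrCharacter K) :
    classInner κ ξ = (coef κ ξ : ℂ) := by
  obtain ⟨n, hn⟩ := Helper15.inner_nat hκ (Helper15.irr_char ξ.2)
  rw [coef, hn]; simp

/-- the degree of `ξ` -/
noncomputable def dg (ξ : IrrCharacter K) : ℕ := ⌊((ξ : K → ℂ) 1).re⌋₊

omit [Fintype K] in
theorem dg_spec [Finite K] (ξ : IrrCharacter K) : (ξ : K → ℂ) 1 = (dg ξ : ℂ) := by
  have := Fintype.ofFinite K
  obtain ⟨n, -, hn⟩ := Helper26.irr_degree ξ.2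
  rw [dg, hn]; simp

omit [Fintype K] in
theorem dg_pos [Finite K] (ξ : IrrCharacter K) : 1 ≤ dg ξ := by
  have := Fintype.ofFinite K
  obtain ⟨n, h0, hn⟩ := Helper26.irr_degree ξ.2
  have : ⌊((n : ℂ)).re⌋₊ = n := by simp
  rw [dg, hn, this]; exact h0

variable [Fintype (IrrCharacter K)]

theorem expand {κ : K → ℂ} (hκ : IsCharacter K κ) :
    κ = ∑ ξ : IrrCharacter K, (((coef κ ξ : ℕ) : ℝ) : ℂ) • (ξ : K → ℂ) := by
  conv_lhs => rw [Helper15.cf_expansion (Helper15.char_cf hκ)]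
  refine Finset.sum_congr rfl fun ξ _ => ?_
  rw [coef_spec hκ]; simp

theorem apply_one_eq {κ : K → ℂ} (hκ : IsCharacter K κ) :
    κ 1 = ((∑ ξ : IrrCharacter K, coef κ ξ * dg ξ : ℕ) : ℂ) := by
  conv_lhs => rw [expand hκ]
  simp only [Finset.sum_apply, Pi.smul_apply, smul_eq_mul, dg_spec]
  push_cast
  rfl

theorem norm_eq {κ : K → ℂ} (hκ : IsCharacter K κ) :
    classInner κ κ = ((∑ ξ : IrrCharacter K, coef κ ξ ^ 2 : ℕ) : ℂ) := by
  conv_lhs => rw [expand hκ]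
  rw [classInner_comb]
  push_cast
  refine Finset.sum_congr rfl fun ξ _ => ?_
  rw [Complex.conj_natCast, sq]

end coef

section data
variable {G : Type*} [Group G] [Fintype G] {P C N : Subgroup G} {V : Subgroup C} {t : ℕ}
variable [Fintype C] [Fintype (IrrCharacter C)] [Fintype P]

/-- triviality on `P` -/
def Tr (P C : Subgroup G) (ξ : IrrCharacter C) : Prop :=
  ∀ z : C, (z : G) ∈ P → (ξ : C → ℂ) z = (ξ : C → ℂ) 1

omit [Fintype G] [Fintype C] [Fintype (IrrCharacter C)] in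
theorem Data.sumP_of_Tr [Finite G] (h : Data P C N V t) {ξ : IrrCharacter C} (hξ : Tr P C ξ) :
    ∑ x : P, (ξ : C → ℂ) ⟨x, h.hPC x.2⟩ = (Nat.card P : ℂ) * (dg ξ : ℂ) := by
  rw [Finset.sum_congr rfl (fun (x : P) _ => hξ ⟨x, h.hPC x.2⟩ x.2), Finset.sum_const,
    Finset.card_univ, nsmul_eq_mul, Nat.card_eq_fintype_card, dg_spec]

omit [Fintype G] [Fintype C] [Fintype (IrrCharacter C)] in
theorem Data.sumP_of_not_Tr [Finite G] (h : Data P C N V t) {ξ : IrrCharacter C} (hξ : ¬ Tr P C ξ) :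
    ∑ x : P, (ξ : C → ℂ) ⟨x, h.hPC x.2⟩ = 0 := by
  rw [Tr] at hξ
  push Not at hξ
  obtain ⟨z0, hz0P, hz0⟩ := hξ
  have hzc : z0 ∈ Subgroup.center C := h.le_center (by rw [Subgroup.mem_subgroupOf]; exact hz0P)
  set S := ∑ x : P, (ξ : C → ℂ) ⟨x, h.hPC x.2⟩ with hS
  have h1 : S * (ξ : C → ℂ) 1 = S * (ξ : C → ℂ) z0 := by
    rw [hS, Finset.sum_mul, Finset.sum_mul]
    calc ∑ x : P, (ξ : C → ℂ) ⟨x, h.hPC x.2⟩ * (ξ : C → ℂ) 1
        = ∑ x : P, (ξ : C → ℂ) ⟨(x * (⟨z0, hz0P⟩ : P) : P), h.hPC (x * (⟨z0, hz0P⟩ : P) : P).2⟩ *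
            (ξ : C → ℂ) 1 :=
          (Fintype.sum_equiv (Equiv.mulRight (⟨z0, hz0P⟩ : P)) _ _ (fun x => rfl)).symm
      _ = ∑ x : P, (ξ : C → ℂ) ⟨x, h.hPC x.2⟩ * (ξ : C → ℂ) z0 := by
          refine Finset.sum_congr rfl fun x _ => ?_
          have := Helper15.irr_mul_central ξ.2 (⟨x, h.hPC x.2⟩ : C) hzc
          rw [← this]
          rfl
  have h2 : S * ((ξ : C → ℂ) 1 - (ξ : C → ℂ) z0) = 0 := by rw [mul_sub, h1, sub_self]
  rcases mul_eq_zero.1 h2 with h3 | h3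
  · exact h3
  · exact absurd (sub_eq_zero.1 h3).symm hz0

open scoped Classical in
theorem Data.sumP (h : Data P C N V t) {κ : C → ℂ} (hκ : IsCharacter C κ) :
    ∑ x : P, κ ⟨x, h.hPC x.2⟩ =
      (Nat.card P : ℂ) * ((∑ ξ ∈ Finset.univ.filter (Tr P C), coef κ ξ * dg ξ : ℕ) : ℂ) := by
  have h1 : ∀ x : P, κ ⟨x, h.hPC x.2⟩ =
      ∑ ξ : IrrCharacter C, (coef κ ξ : ℂ) * (ξ : C → ℂ) ⟨x, h.hPC x.2⟩ := by
    intro x
    conv_lhs => rw [expand hκ]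
    simp only [Finset.sum_apply, Pi.smul_apply, smul_eq_mul]
    push_cast
    rfl
  rw [Finset.sum_congr rfl (fun x _ => h1 x), Finset.sum_comm]
  simp only [← Finset.mul_sum]
  rw [← Finset.sum_filter_add_sum_filter_not Finset.univ (Tr P C)]
  have e1 : ∑ ξ ∈ Finset.univ.filter (fun ξ => ¬ Tr P C ξ),
      (coef κ ξ : ℂ) * ∑ x : P, (ξ : C → ℂ) ⟨x, h.hPC x.2⟩ = 0 := by
    apply Finset.sum_eq_zero
    intro ξ hξ
    rw [h.sumP_of_not_Tr (Finset.mem_filter.1 hξ).2, mul_zero]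
  rw [e1, add_zero]
  push_cast
  rw [Finset.mul_sum]
  refine Finset.sum_congr rfl fun ξ hξ => ?_
  rw [h.sumP_of_Tr (Finset.mem_filter.1 hξ).2]
  ring

end data

end Cfsg.Agent.Lib.Helper26.BL
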