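import Mathlib
import Cfsg.Agent.Lib.Helper26.BL.Coef
import Cfsg.Agent.Lib.Helper26.BL.Arith

/-!
# Brauer–Leonard: the key degree estimates
-/

set_option autoImplicit false
set_option linter.unusedSectionVars false

namespace Cfsg.Agent.Lib.Helper26.BL

open Cfsg Cfsg.Agent.Lib
open scoped ComplexConjugate

section
variable {G : Type*} [Group G] [Fintype G] {P C N : Subgroup G} {V : Subgroup C} {t : ℕ}
variable [Fintype C] [Fintype (IrrCharacter C)]

/-- restriction to `C` -/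
def res (C : Subgroup G) (φ : G → ℂ) : C → ℂ := fun k => φ k

omit [Fintype G] [Fintype C] [Fintype (IrrCharacter C)] in
theorem char_res {φ : G → ℂ} (hφ : IsCharacter G φ) : IsCharacter C (res C φ) :=
  Helper15.char_restrict hφ C

open scoped Classical in
/-- the set of irreducible characters of `C` trivial on `P` -/
noncomputable def TT (P C : Subgroup G) [Fintype (IrrCharacter C)] : Finset (IrrCharacter C) :=
  Finset.univ.filter (Tr P C)

omit [Fintype G] [Fintype C] in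
theorem mem_TT {ξ : IrrCharacter C} : ξ ∈ TT P C ↔ Tr P C ξ := by
  classical
  simp [TT]

omit [Fintype G] [Fintype C] in
theorem mem_TT_compl {ξ : IrrCharacter C} [DecidableEq (IrrCharacter C)] :
    ξ ∈ (TT P C)ᶜ ↔ ¬ Tr P C ξ := by
  rw [Finset.mem_compl, mem_TT]

open scoped Classical in
/-- a character of `G` nontrivial on `P` has at least `t` constituents on `C` that are nontrivial on `P` -/
theorem Data.sigma_ge (h : Data P C N V t) {φ : G → ℂ} (hφ : IsCharacter G φ)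
    (hnk : ∃ x ∈ P, φ x ≠ φ 1) : t ≤ ∑ ξ ∈ (TT P C)ᶜ, coef (res C φ) ξ := by
  have hκ := char_res (C := C) hφ
  have hex : ∃ ξ : IrrCharacter C, ¬ Tr P C ξ ∧ coef (res C φ) ξ ≠ 0 := by
    by_contra hcon
    push Not at hcon
    obtain ⟨x, hxP, hx⟩ := hnk
    apply hx
    have e1 : φ x = res C φ ⟨x, h.hPC hxP⟩ := rfl
    have e2 : φ 1 = res C φ 1 := rfl
    rw [e1, e2, expand hκ]
    simp only [Finset.sum_apply, Pi.smul_apply, smul_eq_mul]
    refine Finset.sum_congr rfl fun ξ _ => ?_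
    by_cases hT : Tr P C ξ
    · rw [hT ⟨x, h.hPC hxP⟩ hxP]
    · rw [hcon ξ hT]; simp
  obtain ⟨ξ, hξT, hξ0⟩ := hex
  have hnt : ∃ z : C, (z : G) ∈ P ∧ (ξ : C → ℂ) z ≠ (ξ : C → ℂ) 1 := by
    rw [Tr] at hξT
    push Not at hξT
    exact hξT
  obtain ⟨O, hOt, hO⟩ := h.orbit φ (Helper15.char_cf hφ) ξ hnt
  have hsub : O ⊆ (TT P C)ᶜ := by
    intro ζ hζ
    rw [mem_TT_compl]
    obtain ⟨⟨z, hzP, hz⟩, -, -⟩ := hO ζ hζ
    exact fun hT => hz (hT z hzP)
  calc t ≤ O.card := hOt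
    _ = ∑ ζ ∈ O, 1 := by simp
    _ ≤ ∑ ζ ∈ O, coef (res C φ) ζ := by
        refine Finset.sum_le_sum fun ζ hζ => ?_
        have h1 : classInner (res C φ) ζ = classInner (res C φ) ξ := (hO ζ hζ).2.2
        rw [coef_spec hκ, coef_spec hκ] at h1
        have h2 : coef (res C φ) ζ = coef (res C φ) ξ := by exact_mod_cast h1
        rw [h2]
        exact Nat.one_le_iff_ne_zero.2 hξ0
    _ ≤ ∑ ζ ∈ (TT P C)ᶜ, coef (res C φ) ζ :=
        Finset.sum_le_sum_of_subset hsub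

/-- the multiplicity of the principal character of `P`, counted on `C` -/
noncomputable def bN (P C : Subgroup G) [Fintype C] [Fintype (IrrCharacter C)] (φ : G → ℂ) : ℕ :=
  ∑ ξ ∈ TT P C, coef (res C φ) ξ * dg ξ

/-- the degree, counted on `C` -/
noncomputable def dN (C : Subgroup G) [Fintype C] [Fintype (IrrCharacter C)] (φ : G → ℂ) : ℕ :=
  ∑ ξ : IrrCharacter C, coef (res C φ) ξ * dg ξ

theorem dN_spec {φ : G → ℂ} (hφ : IsCharacter G φ) : φ 1 = (dN C φ : ℂ) :=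
  apply_one_eq (char_res (C := C) hφ)

open scoped Classical in
theorem dN_eq (φ : G → ℂ) :
    dN C φ = bN P C φ + ∑ ξ ∈ (TT P C)ᶜ, coef (res C φ) ξ * dg ξ := by
  rw [dN, bN, Finset.sum_add_sum_compl]

theorem sum_normSq_irr {φ : G → ℂ} (hφ : IsIrrCharacter G φ) :
    ∑ g, ‖φ g‖ ^ 2 = (Nat.card G : ℝ) * 1 := by
  have := sum_normSq φ
  rw [Helper3.classInner_irr_self hφ] at this
  exact_mod_cast this

open scoped Classical in
/-- **The key estimate**: away from the boundary case, an irreducible character of `G` that is nontrivial on `P`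
and contains the principal character of `P` has degree at least `|P| - 1 - t + b`. -/
theorem Data.key (h : Data P C N V t) (hQ : (t + 1) ^ 2 ≤ Nat.card P) (ht : 1 ≤ t)
    {φ : G → ℂ} (hφ : IsIrrCharacter G φ) (hnk : ∃ x ∈ P, φ x ≠ φ 1) (hb : bN P C φ ≠ 0) :
    Nat.card P + bN P C φ ≤ dN C φ + t + 1 := by
  have hφc := Helper15.irr_char hφ
  have hκ := char_res (C := C) hφc
  have hm := h.main_ineq φ (Helper15.irr_cf hφ) (Helper15.irr_one_ne_zero hφ)
    (fun ξ => (coef (res C φ) ξ : ℝ)) (fun ξ => Nat.cast_nonneg _) (expand hκ) (TT P C)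
    (fun ξ hξ => mem_TT.1 hξ) 1 (sum_normSq_irr hφ)
  have hσ := h.sigma_ge hφc hnk
  set r := Real.sqrt (∑ ξ ∈ TT P C, (coef (res C φ) ξ : ℝ) ^ 2) with hr
  have hr2 : r ^ 2 = ∑ ξ ∈ TT P C, (coef (res C φ) ξ : ℝ) ^ 2 :=
    Real.sq_sqrt (Finset.sum_nonneg fun ξ _ => by positivity)
  have hex : ∃ ξ ∈ TT P C, coef (res C φ) ξ ≠ 0 := by
    by_contra hcon
    push Not at hcon
    apply hb
    rw [bN]
    apply Finset.sum_eq_zero
    intro ξ hξ
    rw [hcon ξ hξ, zero_mul]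
  have hr1 : 1 ≤ r := by
    obtain ⟨ξ, hξT, hξ0⟩ := hex
    have h1 : (1 : ℝ) ≤ ∑ ξ ∈ TT P C, (coef (res C φ) ξ : ℝ) ^ 2 := by
      refine le_trans ?_ (Finset.single_le_sum (f := fun ξ => (coef (res C φ) ξ : ℝ) ^ 2)
        (fun ξ _ => by positivity) hξT)
      have : (1 : ℝ) ≤ (coef (res C φ) ξ : ℝ) := by exact_mod_cast Nat.one_le_iff_ne_zero.2 hξ0
      nlinarith
    rw [hr]
    exact Real.one_le_sqrt.2 h1
  have hsplit : ∑ ξ, (coef (res C φ) ξ : ℝ) ^ 2 =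
      r ^ 2 + ∑ ξ ∈ (TT P C)ᶜ, (coef (res C φ) ξ : ℝ) ^ 2 := by
    rw [hr2, Finset.sum_add_sum_compl]
  have hgν : ∑ ξ ∈ (TT P C)ᶜ, (coef (res C φ) ξ : ℝ) ≤
      ∑ ξ ∈ (TT P C)ᶜ, (coef (res C φ) ξ : ℝ) ^ 2 := by
    refine Finset.sum_le_sum fun ξ _ => ?_
    have : coef (res C φ) ξ ≤ coef (res C φ) ξ ^ 2 := Nat.le_self_pow (by norm_num) _
    exact_mod_cast this
  have htg : (t : ℝ) ≤ ∑ ξ ∈ (TT P C)ᶜ, (coef (res C φ) ξ : ℝ) := by exact_mod_cast hσ
  rw [hsplit, mul_one] at hm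
  have ha := arith1 (Nat.card P : ℝ) t r _ _ (by exact_mod_cast hQ) (by exact_mod_cast ht) hr1 htg hgν hm
  have ha' : Nat.card P < ∑ ξ ∈ (TT P C)ᶜ, coef (res C φ) ξ + t + 2 := by
    have : (Nat.card P : ℝ) < ((∑ ξ ∈ (TT P C)ᶜ, coef (res C φ) ξ + t + 2 : ℕ) : ℝ) := by
      push_cast; linarith
    exact_mod_cast this
  have hd : ∑ ξ ∈ (TT P C)ᶜ, coef (res C φ) ξ ≤ ∑ ξ ∈ (TT P C)ᶜ, coef (res C φ) ξ * dg ξ :=
    Finset.sum_le_sum fun ξ _ => Nat.le_mul_of_pos_right _ (dg_pos ξ)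
  rw [dN_eq (P := P) (C := C) φ]
  omega

end

end Cfsg.Agent.Lib.Helper26.BL
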