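import Mathlib
import Cfsg.Agent.Lib.Helper26.BL.Key
import Cfsg.Agent.Lib.Helper3.Perm

/-!
# Brauer–Leonard: the boundary case `|P| = t² + t + 1`
-/

set_option autoImplicit false
set_option linter.unusedSectionVars false

namespace Cfsg.Agent.Lib.Helper26.BL

open Cfsg Cfsg.Agent.Lib
open scoped ComplexConjugate

/-- the principal character -/
def oneI (K : Type*) [Group K] : IrrCharacter K := ⟨fun _ => 1, Helper3.isIrrCharacter_one⟩

section
variable {G : Type*} [Group G] [Fintype G] {P C N : Subgroup G} {V : Subgroup C} {t : ℕ}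
variable [Fintype C] [Fintype (IrrCharacter C)]

theorem sum_normSq_comb2 {φ : G → ℂ} (hφ : IsIrrCharacter G φ) (hφ1 : φ ≠ fun _ => 1) (t : ℕ) :
    ∑ g, ‖(t : ℂ) * φ g + 1‖ ^ 2 = (Nat.card G : ℝ) * ((t : ℝ) ^ 2 + 1) := by
  have h1 := sum_normSq (fun g => (t : ℂ) * φ g + 1)
  have e : (fun g => (t : ℂ) * φ g + 1) = (t : ℂ) • φ + (fun _ => (1 : ℂ)) := by
    funext g; simp
  have h2 : classInner ((t : ℂ) • φ + (fun _ => (1 : ℂ))) ((t : ℂ) • φ + (fun _ => (1 : ℂ))) =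
      (t : ℂ) ^ 2 + 1 := by
    rw [Helper3.classInner_add_left, Helper3.classInner_add_right, Helper3.classInner_add_right,
      Helper3.classInner_smul_left, Helper3.classInner_smul_left, Helper3.classInner_smul_right,
      Helper3.classInner_smul_right, Helper3.classInner_irr_self hφ,
      Helper3.classInner_irr_self Helper3.isIrrCharacter_one,
      Helper3.classInner_irr_ne hφ Helper3.isIrrCharacter_one hφ1,
      Helper3.classInner_irr_ne Helper3.isIrrCharacter_one hφ (Ne.symm hφ1)]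
    simp only [Complex.conj_natCast]
    ring
  rw [e, h2] at h1
  have h3 : ((∑ g, ‖(t : ℂ) * φ g + 1‖ ^ 2 : ℝ) : ℂ) = (Nat.card G : ℂ) * ((t : ℂ) ^ 2 + 1) := by
    rw [← h1]
  exact_mod_cast h3

open scoped Classical in
theorem Data.boundary (h : Data P C N V t) (ht : 2 ≤ t) (hQ : Nat.card P = t ^ 2 + t + 1)
    {φ : G → ℂ} (hφ : IsIrrCharacter G φ) (hφ1 : φ ≠ fun _ => 1) (hnk : ∃ x ∈ P, φ x ≠ φ 1)
    (he : coef (res C φ) (oneI C) ≠ 0) (hdeg : dN C φ + 1 ≤ t ^ 2) : False := by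
  have hφc := Helper15.irr_char hφ
  have hκ := char_res (C := C) hφc
  set c : IrrCharacter C → ℕ := coef (res C φ) with hc
  have hΨcf : IsClassFunction G (fun g => (t : ℂ) * φ g + 1) := by
    intro g x
    simp only [Helper15.irr_cf hφ g x]
  have hΨ1 : (t : ℂ) * φ 1 + 1 ≠ 0 := by
    rw [dN_spec (C := C) hφc]
    have : t * dN C φ + 1 ≠ 0 := Nat.succ_ne_zero _
    exact_mod_cast this
  have hexp : (fun k : C => (t : ℂ) * φ k + 1) = ∑ ξ : IrrCharacter C,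
      (((t : ℝ) * (c ξ : ℝ) + (if ξ = oneI C then 1 else 0) : ℝ) : ℂ) • (ξ : C → ℂ) := by
    have e1 : (fun k : C => (t : ℂ) * φ k + 1) = (t : ℂ) • res C φ + ((oneI C : IrrCharacter C) : C → ℂ) := by
      funext k; simp [res, oneI]
    rw [e1]
    conv_lhs => rw [expand hκ]
    rw [Finset.smul_sum]
    have e2 : ((oneI C : IrrCharacter C) : C → ℂ) =
        ∑ ξ : IrrCharacter C, ((if ξ = oneI C then 1 else 0 : ℝ) : ℂ) • (ξ : C → ℂ) := by
      rw [Finset.sum_eq_single (oneI C)]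
      · simp
      · intro ξ _ hne; rw [if_neg hne]; simp
      · intro hh; exact absurd (Finset.mem_univ _) hh
    conv_lhs => rw [e2]
    rw [← Finset.sum_add_distrib]
    refine Finset.sum_congr rfl fun ξ _ => ?_
    rw [smul_smul, ← add_smul]
    congr 1
    push_cast
    rfl
  have hm := h.main_ineq (fun g => (t : ℂ) * φ g + 1) hΨcf hΨ1
    (fun ξ => (t : ℝ) * (c ξ : ℝ) + (if ξ = oneI C then 1 else 0))
    (fun ξ => by split_ifs <;> positivity) hexp {oneI C}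
    (fun ξ hξ z _ => by rw [Finset.mem_singleton.1 hξ]; rfl) ((t : ℝ) ^ 2 + 1)
    (sum_normSq_comb2 hφ hφ1 t)
  set E : ℝ := (t : ℝ) * (c (oneI C) : ℝ) + 1 with hE
  set k : ℝ := ∑ ξ ∈ ({oneI C} : Finset (IrrCharacter C))ᶜ, (c ξ : ℝ) ^ 2 with hk
  set g : ℝ := ∑ ξ ∈ ({oneI C} : Finset (IrrCharacter C))ᶜ, (c ξ : ℝ) with hg
  have hE0 : 0 ≤ E := by positivity
  have s1 : ∑ ξ ∈ ({oneI C} : Finset (IrrCharacter C)),
      ((t : ℝ) * (c ξ : ℝ) + (if ξ = oneI C then 1 else 0)) ^ 2 = E ^ 2 := by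
    rw [Finset.sum_singleton, if_pos rfl]
  have s2 : ∑ ξ ∈ ({oneI C} : Finset (IrrCharacter C))ᶜ,
      ((t : ℝ) * (c ξ : ℝ) + (if ξ = oneI C then 1 else 0)) ^ 2 = (t : ℝ) ^ 2 * k := by
    rw [hk, Finset.mul_sum]
    refine Finset.sum_congr rfl fun ξ hξ => ?_
    rw [if_neg (by simpa using hξ)]
    ring
  have s3 : ∑ ξ ∈ ({oneI C} : Finset (IrrCharacter C))ᶜ,
      ((t : ℝ) * (c ξ : ℝ) + (if ξ = oneI C then 1 else 0)) = (t : ℝ) * g := by
    rw [hg, Finset.mul_sum]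
    refine Finset.sum_congr rfl fun ξ hξ => ?_
    rw [if_neg (by simpa using hξ)]
    ring
  have s4 : ∑ ξ, ((t : ℝ) * (c ξ : ℝ) + (if ξ = oneI C then 1 else 0)) ^ 2 =
      E ^ 2 + (t : ℝ) ^ 2 * k := by
    rw [← Finset.sum_add_sum_compl ({oneI C} : Finset (IrrCharacter C)), s1, s2]
  rw [s4, s1, s3, Real.sqrt_sq hE0] at hm
  -- the numerical facts
  have hσ := h.sigma_ge hφc hnk
  have hsub : (TT P C)ᶜ ⊆ ({oneI C} : Finset (IrrCharacter C))ᶜ := by
    intro ξ hξ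
    rw [mem_TT_compl] at hξ
    rw [Finset.mem_compl, Finset.mem_singleton]
    rintro rfl
    exact hξ (fun z _ => rfl)
  have hgN : g = ((∑ ξ ∈ ({oneI C} : Finset (IrrCharacter C))ᶜ, c ξ : ℕ) : ℝ) := by
    rw [hg]; push_cast; rfl
  have htg : (t : ℝ) ≤ g := by
    rw [hgN]
    exact_mod_cast hσ.trans (Finset.sum_le_sum_of_subset hsub)
  have hgk : g ≤ k := by
    refine Finset.sum_le_sum fun ξ _ => ?_
    have : c ξ ≤ c ξ ^ 2 := Nat.le_self_pow (by norm_num) _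
    exact_mod_cast this
  have hd : c (oneI C) + ∑ ξ ∈ ({oneI C} : Finset (IrrCharacter C))ᶜ, c ξ ≤ dN C φ := by
    rw [dN, ← Finset.sum_add_sum_compl ({oneI C} : Finset (IrrCharacter C)), Finset.sum_singleton]
    exact add_le_add (Nat.le_mul_of_pos_right _ (dg_pos _))
      (Finset.sum_le_sum fun ξ _ => Nat.le_mul_of_pos_right _ (dg_pos ξ))
  have he1 : 1 ≤ c (oneI C) := Nat.one_le_iff_ne_zero.2 he
  have hg2 : g ≤ (t : ℝ) ^ 2 - 2 := by
    rw [hgN]
    have : (∑ ξ ∈ ({oneI C} : Finset (IrrCharacter C))ᶜ, c ξ) + 2 ≤ t ^ 2 := by omega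
    have h' : ((∑ ξ ∈ ({oneI C} : Finset (IrrCharacter C))ᶜ, c ξ : ℕ) : ℝ) + 2 ≤ (t : ℝ) ^ 2 := by
      exact_mod_cast this
    linarith
  have hEt : (t : ℝ) + 1 ≤ E := by
    rw [hE]
    have : (1 : ℝ) ≤ (c (oneI C) : ℝ) := by exact_mod_cast he1
    have ht0 : (0 : ℝ) ≤ t := Nat.cast_nonneg _
    nlinarith
  have ha := arith2 (t : ℝ) E k g (by exact_mod_cast ht) hEt htg hgk hg2
  have hQ' : (Nat.card P : ℝ) = (t : ℝ) ^ 2 + t + 1 := by exact_mod_cast hQ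
  rw [hQ'] at hm
  linarith

end

end Cfsg.Agent.Lib.Helper26.BL
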