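import Mathlib
import Cfsg.Agent.Lib.Helper26.BL.Boundary
import Cfsg.Agent.Lib.Helper80.Linear

/-!
# Brauer–Leonard: the main theorem for the abstract configuration
-/

set_option autoImplicit false
set_option linter.unusedSectionVars false

namespace Cfsg.Agent.Lib.Helper26.BL

open Cfsg Cfsg.Agent.Lib
open scoped ComplexConjugate

section irr
variable {K : Type*} [Group K] [Fintype K]

open scoped Classical in
theorem coef_irr (ζ ξ : IrrCharacter K) : coef (ζ : K → ℂ) ξ = if ζ = ξ then 1 else 0 := by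
  have h := coef_spec (Helper15.irr_char ζ.2) ξ
  split_ifs with he
  · rw [he, Helper3.classInner_irr_self ξ.2] at h
    rw [he]
    exact_mod_cast h.symm
  · rw [Helper3.classInner_irr_ne ζ.2 ξ.2 (fun hh => he (Subtype.ext hh))] at h
    exact_mod_cast h.symm

theorem dg_oneI : dg (oneI K) = 1 := by
  have h := dg_spec (oneI K)
  have : ((oneI K : IrrCharacter K) : K → ℂ) 1 = 1 := rfl
  rw [this] at h
  exact_mod_cast h.symm

end irr

section additivity
variable {G : Type*} [Group G] [Fintype G] [Fintype (IrrCharacter G)] {P C : Subgroup G}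
  [Fintype C] [Fintype (IrrCharacter C)]

theorem coef_res_expand {Θ : G → ℂ} (hΘ : IsCharacter G Θ) (ξ : IrrCharacter C) :
    coef (res C Θ) ξ = ∑ φ : IrrCharacter G, coef Θ φ * coef (res C (φ : G → ℂ)) ξ := by
  have h1 : classInner (res C Θ) ξ =
      ∑ φ : IrrCharacter G, (coef Θ φ : ℂ) * classInner (res C (φ : G → ℂ)) ξ := by
    have e : res C Θ = ∑ φ : IrrCharacter G, (coef Θ φ : ℂ) • res C (φ : G → ℂ) := by
      funext k
      show Θ k = _
      conv_lhs => rw [expand hΘ]
      simp [res]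
    rw [e, Helper3.classInner_sum_left]
    refine Finset.sum_congr rfl fun φ _ => ?_
    rw [Helper3.classInner_smul_left]
  rw [coef_spec (char_res hΘ)] at h1
  have h2 : ∀ φ : IrrCharacter G, classInner (res C (φ : G → ℂ)) ξ =
      (coef (res C (φ : G → ℂ)) ξ : ℂ) := fun φ => coef_spec (char_res (Helper15.irr_char φ.2)) ξ
  simp only [h2] at h1
  exact_mod_cast h1

theorem dN_expand {Θ : G → ℂ} (hΘ : IsCharacter G Θ) :
    dN C Θ = ∑ φ : IrrCharacter G, coef Θ φ * dN C (φ : G → ℂ) := by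
  simp only [dN, coef_res_expand hΘ, Finset.sum_mul, Finset.mul_sum]
  rw [Finset.sum_comm]
  refine Finset.sum_congr rfl fun φ _ => Finset.sum_congr rfl fun ξ _ => ?_
  ring

theorem bN_expand {Θ : G → ℂ} (hΘ : IsCharacter G Θ) :
    bN P C Θ = ∑ φ : IrrCharacter G, coef Θ φ * bN P C (φ : G → ℂ) := by
  simp only [bN, coef_res_expand hΘ, Finset.sum_mul, Finset.mul_sum]
  rw [Finset.sum_comm]
  refine Finset.sum_congr rfl fun φ _ => Finset.sum_congr rfl fun ξ _ => ?_
  ring

theorem oneI_mem_TT : oneI C ∈ TT P C := mem_TT.2 (fun _ _ => rfl)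

theorem dN_one : dN C ((oneI G : IrrCharacter G) : G → ℂ) = 1 := by
  classical
  have e : res C ((oneI G : IrrCharacter G) : G → ℂ) = ((oneI C : IrrCharacter C) : C → ℂ) := rfl
  rw [dN, e]
  simp only [coef_irr]
  rw [Finset.sum_eq_single (oneI C)]
  · simp [dg_oneI]
  · intro ξ _ hne; rw [if_neg (Ne.symm hne)]; simp
  · intro hh; exact absurd (Finset.mem_univ _) hh

theorem bN_one : bN P C ((oneI G : IrrCharacter G) : G → ℂ) = 1 := by
  classical
  have e : res C ((oneI G : IrrCharacter G) : G → ℂ) = ((oneI C : IrrCharacter C) : C → ℂ) := rfl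
  rw [bN, e]
  simp only [coef_irr]
  rw [Finset.sum_eq_single (oneI C)]
  · simp [dg_oneI]
  · intro ξ _ hne; rw [if_neg (Ne.symm hne)]; simp
  · intro hh; exact absurd oneI_mem_TT hh

theorem coef_res_one : coef (res C ((oneI G : IrrCharacter G) : G → ℂ)) (oneI C) = 1 := by
  classical
  have e : res C ((oneI G : IrrCharacter G) : G → ℂ) = ((oneI C : IrrCharacter C) : C → ℂ) := rfl
  rw [e, coef_irr, if_pos rfl]

theorem bN_le_dN (φ : G → ℂ) : bN P C φ ≤ dN C φ := by
  classical
  rw [dN_eq (P := P)]; exact Nat.le_add_right _ _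

end additivity

section theta
variable {G : Type*} [Group G] [Fintype G] {P C N : Subgroup G} {V : Subgroup C} {t : ℕ}
  [Fintype C] [Fintype (IrrCharacter C)]

/-- `χ χ̄` -/
noncomputable def theta (χ : G → ℂ) : G → ℂ := χ * fun g => conj (χ g)

theorem char_theta {χ : G → ℂ} (hχ : IsCharacter G χ) : IsCharacter G (theta χ) :=
  Helper3.IsCharacter.mul hχ (Helper3.IsCharacter.conj hχ)

theorem coef_theta_one {χ : G → ℂ} (hχ : IsIrrCharacter G χ) : coef (theta χ) (oneI G) = 1 := by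
  have h := coef_spec (char_theta (Helper15.irr_char hχ)) (oneI G)
  have e : classInner (theta χ) ((oneI G : IrrCharacter G) : G → ℂ) = classInner χ χ := by
    simp only [classInner, theta, oneI, Pi.mul_apply, map_one, mul_one]
  rw [e, Helper3.classInner_irr_self hχ] at h
  exact_mod_cast h.symm

theorem dN_theta {χ : G → ℂ} (hχ : IsCharacter G χ) : dN C (theta χ) = dN C χ ^ 2 := by
  have h1 := dN_spec (C := C) (char_theta hχ)
  have h2 := dN_spec (C := C) hχ
  have e : theta χ 1 = χ 1 * conj (χ 1) := rfl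
  rw [e, h2, Complex.conj_natCast] at h1
  have : ((dN C χ ^ 2 : ℕ) : ℂ) = (dN C (theta χ) : ℂ) := by rw [← h1]; push_cast; ring
  exact_mod_cast this.symm

theorem coef_res_theta {χ : G → ℂ} (hχ : IsCharacter G χ) :
    coef (res C (theta χ)) (oneI C) = ∑ ξ : IrrCharacter C, coef (res C χ) ξ ^ 2 := by
  have h := coef_spec (char_res (C := C) (char_theta hχ)) (oneI C)
  have e : classInner (res C (theta χ)) ((oneI C : IrrCharacter C) : C → ℂ) =
      classInner (res C χ) (res C χ) := by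
    simp only [classInner, theta, oneI, res, Pi.mul_apply, map_one, mul_one]
  rw [e, norm_eq (char_res hχ)] at h
  exact_mod_cast h.symm

theorem Data.dN_le_bN_theta (h : Data P C N V t) {χ : G → ℂ} (hχ : IsCharacter G χ) :
    dN C χ ≤ bN P C (theta χ) := by
  classical
  have := Fintype.ofFinite P
  have := Fintype.ofFinite (IrrCharacter P)
  have hκ : IsCharacter P (fun y : P => χ y) := Helper15.char_restrict hχ P
  have hcomm : ∀ a b : P, a * b = b * a := by
    intro a b
    apply Subtype.ext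
    exact h.central a a.2 b (h.hPC b.2)
  have h1 := h.sumP (char_res (C := C) (char_theta hχ))
  have h2 : ∑ x : P, res C (theta χ) ⟨x, h.hPC x.2⟩ =
      (Nat.card P : ℂ) * classInner (fun y : P => χ y) (fun y : P => χ y) := by
    have hc : (Nat.card P : ℂ) ≠ 0 := by exact_mod_cast Nat.card_pos.ne'
    rw [classInner, ← mul_assoc, mul_inv_cancel₀ hc, one_mul]
    rfl
  rw [h2, norm_eq hκ] at h1
  have hc : (Nat.card P : ℂ) ≠ 0 := by exact_mod_cast Nat.card_pos.ne'
  have h3 := mul_left_cancel₀ hc h1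
  have h4 : ∑ ξ : IrrCharacter P, coef (fun y : P => χ y) ξ ^ 2 = bN P C (theta χ) := by
    have : ((∑ ξ : IrrCharacter P, coef (fun y : P => χ y) ξ ^ 2 : ℕ) : ℂ) =
        ((bN P C (theta χ) : ℕ) : ℂ) := by
      rw [h3, bN, TT]
    exact_mod_cast this
  have h5 : dN C χ = ∑ ξ : IrrCharacter P, coef (fun y : P => χ y) ξ * dg ξ := by
    have e1 := dN_spec (C := C) hχ
    have e2 := apply_one_eq hκ
    have e3 : χ ((1 : P) : G) = χ 1 := rfl
    rw [e3, e1] at e2
    exact_mod_cast e2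
  have h6 : ∀ ξ : IrrCharacter P, dg ξ = 1 := by
    intro ξ
    have e1 := dg_spec ξ
    rw [Helper80.char_one_eq_one_of_comm hcomm ξ] at e1
    exact_mod_cast e1.symm
  rw [h5, ← h4]
  refine Finset.sum_le_sum fun ξ _ => ?_
  rw [h6, mul_one]
  exact Nat.le_self_pow (by norm_num) _

theorem Data.t_le_dN (h : Data P C N V t) {χ : G → ℂ} (hχ : IsCharacter G χ)
    (hnk : ∃ x ∈ P, χ x ≠ χ 1) : t ≤ dN C χ := by
  classical
  refine (h.sigma_ge hχ hnk).trans ?_
  rw [dN_eq (P := P)]
  refine le_trans ?_ (Nat.le_add_left _ _)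
  exact Finset.sum_le_sum fun ξ _ => Nat.le_mul_of_pos_right _ (dg_pos ξ)

theorem Data.t_le_coef_theta (h : Data P C N V t) {χ : G → ℂ} (hχ : IsCharacter G χ)
    (hnk : ∃ x ∈ P, χ x ≠ χ 1) : t ≤ coef (res C (theta χ)) (oneI C) := by
  classical
  rw [coef_res_theta hχ]
  refine (h.sigma_ge hχ hnk).trans ?_
  refine le_trans ?_ (Finset.sum_le_sum_of_subset (Finset.subset_univ ((TT P C)ᶜ)))
  exact Finset.sum_le_sum fun ξ _ => Nat.le_self_pow (by norm_num) _

omit [Fintype G] [Fintype C] [Fintype (IrrCharacter C)] in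
theorem Data.t_pos [Finite G] (h : Data P C N V t) : 1 ≤ t := by
  rcases Nat.eq_zero_or_pos t with h0 | h0
  · have := h.card
    rw [h0, zero_mul] at this
    exact absurd this Nat.card_pos.ne'
  · exact h0

/-- **Main theorem for the configuration.** -/
theorem Data.main (h : Data P C N V t) (hdiv : t ∣ Nat.card P - 1) {χ : G → ℂ}
    (hχ : IsIrrCharacter G χ) (hnk : ∃ x ∈ P, χ x ≠ χ 1) (hdeg : dN C χ ^ 2 + 1 < Nat.card P)
    (hx2 : 2 ≤ dN C χ) :
    ∃ φ : G → ℂ, IsIrrCharacter G φ ∧ φ ≠ (fun _ => 1) ∧ ∀ y ∈ P, φ y = φ 1 := by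
  classical
  have := Fintype.ofFinite (IrrCharacter G)
  by_contra hcon
  push Not at hcon
  have hχc := Helper15.irr_char hχ
  have hΘ := char_theta hχc
  set x := dN C χ with hx
  set m : IrrCharacter G → ℕ := coef (theta χ) with hm
  have hm1 : m (oneI G) = 1 := coef_theta_one hχ
  have ht1 := h.t_pos
  have htx : t ≤ x := h.t_le_dN hχc hnk
  have hD : x ^ 2 = ∑ φ : IrrCharacter G, m φ * dN C (φ : G → ℂ) := by
    rw [← dN_expand hΘ, dN_theta hχc]
  have hne : ∀ φ : IrrCharacter G, φ ≠ oneI G → ∃ y ∈ P, (φ : G → ℂ) y ≠ (φ : G → ℂ) 1 := by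
    intro φ hφ
    exact hcon φ φ.2 (fun hh => hφ (Subtype.ext hh))
  obtain ⟨s, hs⟩ := hdiv
  have hQs : Nat.card P = t * s + 1 := by
    have : 1 ≤ Nat.card P := Nat.card_pos
    omega
  have hts : t + 1 ≤ s := by
    by_contra hlt
    push Not at hlt
    have h1 : s ≤ t := by omega
    have h2 : t * s ≤ x * x := Nat.mul_le_mul htx (h1.trans htx)
    nlinarith
  rcases Nat.eq_or_lt_of_le hts with hs1 | hs2
  · -- boundary case
    have hQ : Nat.card P = t ^ 2 + t + 1 := by rw [hQs, ← hs1]; ring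
    have hxt : x = t := by
      apply le_antisymm _ htx
      by_contra hlt
      push Not at hlt
      have : (t + 1) ^ 2 ≤ x ^ 2 := Nat.pow_le_pow_left hlt 2
      nlinarith
    have ht2 : 2 ≤ t := hxt ▸ hx2
    have hE : coef (res C (theta χ)) (oneI C) =
        ∑ φ : IrrCharacter G, m φ * coef (res C (φ : G → ℂ)) (oneI C) := coef_res_expand hΘ _
    have hEt := h.t_le_coef_theta hχc hnk
    have hex : ∃ φ : IrrCharacter G, φ ≠ oneI G ∧ m φ ≠ 0 ∧ coef (res C (φ : G → ℂ)) (oneI C) ≠ 0 := by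
      by_contra hno
      push Not at hno
      rw [hE, Finset.sum_eq_single (oneI G), hm1, coef_res_one] at hEt
      · omega
      · intro φ _ hφ
        by_cases h0 : m φ = 0
        · rw [h0, zero_mul]
        · rw [hno φ hφ h0, mul_zero]
      · intro hh; exact absurd (Finset.mem_univ _) hh
    obtain ⟨φ0, hφ0, hm0, he0⟩ := hex
    have hd0 : dN C (φ0 : G → ℂ) + 1 ≤ t ^ 2 := by
      rw [← hxt, hD, ← Finset.add_sum_erase _ _ (Finset.mem_univ (oneI G)), hm1, dN_one, mul_one,
        add_comm]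
      apply Nat.add_le_add_left
      refine le_trans ?_ (Finset.single_le_sum (f := fun φ => m φ * dN C (φ : G → ℂ))
        (fun _ _ => Nat.zero_le _) (Finset.mem_erase.2 ⟨hφ0, Finset.mem_univ φ0⟩))
      exact Nat.le_mul_of_pos_left _ (Nat.pos_of_ne_zero hm0)
    exact h.boundary ht2 hQ φ0.2 (fun hh => hφ0 (Subtype.ext hh)) (hne φ0 hφ0) he0 hd0
  · -- generic case
    have hQ : (t + 1) ^ 2 ≤ Nat.card P := by
      rw [hQs]
      have : t * (t + 2) ≤ t * s := Nat.mul_le_mul_left t hs2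
      nlinarith
    have hB : bN P C (theta χ) = ∑ φ : IrrCharacter G, m φ * bN P C (φ : G → ℂ) := bN_expand hΘ
    have hBx := h.dN_le_bN_theta hχc
    have hex : ∃ φ : IrrCharacter G, φ ≠ oneI G ∧ m φ ≠ 0 ∧ bN P C (φ : G → ℂ) ≠ 0 := by
      by_contra hno
      push Not at hno
      rw [hB, Finset.sum_eq_single (oneI G), hm1, bN_one] at hBx
      · omega
      · intro φ _ hφ
        by_cases h0 : m φ = 0
        · rw [h0, zero_mul]
        · rw [hno φ hφ h0, mul_zero]
      · intro hh; exact absurd (Finset.mem_univ _) hh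
    obtain ⟨φ0, hφ0, hm0, hb0⟩ := hex
    have hkey := h.key hQ ht1 φ0.2 (hne φ0 hφ0) hb0
    have hsum : bN P C (theta χ) + (dN C (φ0 : G → ℂ) - bN P C (φ0 : G → ℂ)) ≤ x ^ 2 := by
      rw [hD, hB, ← Finset.add_sum_erase _ _ (Finset.mem_univ φ0),
        ← Finset.add_sum_erase _ (fun φ => m φ * dN C (φ : G → ℂ)) (Finset.mem_univ φ0)]
      have h1 : ∑ φ ∈ Finset.univ.erase φ0, m φ * bN P C (φ : G → ℂ) ≤
          ∑ φ ∈ Finset.univ.erase φ0, m φ * dN C (φ : G → ℂ) :=
        Finset.sum_le_sum fun φ _ => Nat.mul_le_mul_left _ (bN_le_dN _)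
      have h2 : m φ0 * bN P C (φ0 : G → ℂ) + (dN C (φ0 : G → ℂ) - bN P C (φ0 : G → ℂ)) ≤
          m φ0 * dN C (φ0 : G → ℂ) := by
        have hle := bN_le_dN (P := P) (C := C) (φ0 : G → ℂ)
        obtain ⟨d, hd⟩ := Nat.exists_eq_add_of_le hle
        rw [hd, Nat.add_sub_cancel_left, mul_add]
        apply Nat.add_le_add_left
        exact Nat.le_mul_of_pos_left _ (Nat.pos_of_ne_zero hm0)
      omega
    omega

end theta

end Cfsg.Agent.Lib.Helper26.BL
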