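import Mathlib
import Cfsg.Agent.Lib.Helper26.BL.Data
import Cfsg.Agent.Lib.Helper26.FrobSection
import Cfsg.Agent.Lib.Helper74.AbSylow

/-!
# Brauer–Leonard: the configuration attached to a Sylow subgroup with uniform centralisers
-/

set_option autoImplicit false
set_option linter.unusedSectionVars false

namespace Cfsg.Agent.Lib.Helper26.BL

open Cfsg Cfsg.Agent.Lib

section
variable {G : Type*} [Group G] [Finite G] {p : ℕ} [Fact p.Prime] (P : Sylow p G)
  (hstar : ∀ x ∈ (P : Subgroup G), x ≠ 1 →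
    Subgroup.centralizer ({x} : Set G) = Subgroup.centralizer ((P : Subgroup G) : Set G))

include hstar in
theorem star_le : (P : Subgroup G) ≤ Subgroup.centralizer ((P : Subgroup G) : Set G) := by
  intro x hx
  by_cases h1 : x = 1
  · rw [h1]; exact Subgroup.one_mem _
  · rw [← hstar x hx h1, Subgroup.mem_centralizer_singleton_iff]

theorem mem_normalizer_of_conj_mem (H : Subgroup G) (g : G) (h : ∀ y ∈ H, g * y * g⁻¹ ∈ H) :
    g ∈ Subgroup.normalizer (H : Set G) := by
  rw [Subgroup.mem_normalizer_iff]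
  intro y
  refine ⟨h y, fun hy => ?_⟩
  let f : H → H := fun z => ⟨g * z * g⁻¹, h z z.2⟩
  have hinj : Function.Injective f := by
    intro a b hab
    have : g * a * g⁻¹ = g * b * g⁻¹ := congrArg Subtype.val hab
    apply Subtype.ext
    simpa using this
  obtain ⟨z, hz⟩ := (Finite.injective_iff_surjective.1 hinj) ⟨_, hy⟩
  have : g * z * g⁻¹ = g * y * g⁻¹ := congrArg Subtype.val hz
  have e : (z : G) = y := by simpa using this
  rw [← e]; exact z.2

include hstar in
/-- the configuration exists -/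
theorem exists_data : ∃ V : Subgroup (Subgroup.centralizer ((P : Subgroup G) : Set G)),
    Data (P : Subgroup G) (Subgroup.centralizer ((P : Subgroup G) : Set G))
      (Subgroup.normalizer ((P : Subgroup G) : Set G)) V
      ((Subgroup.centralizer ((P : Subgroup G) : Set G)).relIndex
        (Subgroup.normalizer ((P : Subgroup G) : Set G))) := by
  have hp : p.Prime := Fact.out
  set C := Subgroup.centralizer ((P : Subgroup G) : Set G) with hC
  set N := Subgroup.normalizer ((P : Subgroup G) : Set G) with hN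
  have hPC : (P : Subgroup G) ≤ C := star_le P hstar
  have hcomm : ∀ x ∈ (P : Subgroup G), ∀ c ∈ C, x * c = c * x := by
    intro x hx c hc
    exact Subgroup.mem_centralizer_iff.1 hc x hx
  have hCN : C ≤ N := by
    intro c hc
    apply mem_normalizer_of_conj_mem
    intro y hy
    rw [← hcomm y hy c hc, mul_assoc, mul_inv_cancel, mul_one]
    exact hy
  let Q : Sylow p C := P.subtype hPC
  have hQ : (Q : Subgroup C) = (P : Subgroup G).subgroupOf C := Sylow.coe_subtype _ _
  have hQN : Subgroup.normalizer ((Q : Subgroup C) : Set C) ≤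
      Subgroup.centralizer ((Q : Subgroup C) : Set C) := by
    intro c _
    rw [Subgroup.mem_centralizer_iff]
    intro z hz
    have hz' : z ∈ (Q : Subgroup C) := hz
    rw [hQ, Subgroup.mem_subgroupOf] at hz'
    apply Subtype.ext
    exact hcomm z hz' c c.2
  obtain ⟨V, hVn, hVc, hVi, hVmem⟩ := Helper74.exists_normal_pComplement Q hQN
  have hcardQ : Nat.card (Q : Subgroup C) = Nat.card ((P : Subgroup G).subgroupOf C) := by rw [hQ]
  have hcompl : Subgroup.IsComplement' ((P : Subgroup G).subgroupOf C) V := by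
    apply Subgroup.isComplement'_of_coprime
    · rw [← hcardQ, ← hVi, mul_comm]; exact V.card_mul_index
    · rw [← hcardQ]
      obtain ⟨n, hn⟩ := IsPGroup.iff_card.1 Q.2
      rw [hn]
      exact Nat.Coprime.pow_left n (Nat.coprime_comm.1 hVc)
  set m := Nat.card V with hm
  have hA : ∀ c : C, ((c ^ m : C) : G) ∈ (P : Subgroup G) := by
    intro c
    obtain ⟨⟨z, v⟩, hzv⟩ := hcompl.2 c
    have hzv' : (z : C) * (v : C) = c := hzv
    have hzP : ((z : C) : G) ∈ (P : Subgroup G) := Subgroup.mem_subgroupOf.1 z.2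
    have hcm : Commute (z : C) (v : C) := by
      apply Subtype.ext
      exact hcomm _ hzP _ (v : C).2
    have hv : (v : C) ^ m = 1 := by
      have : v ^ m = 1 := pow_card_eq_one'
      exact_mod_cast congrArg Subtype.val this
    rw [← hzv', hcm.mul_pow, hv, mul_one]
    exact (P : Subgroup G).pow_mem hzP m
  have hB : ∀ d : C, d ∉ V → d ^ m ≠ 1 := by
    intro d hd h1
    apply hd
    apply hVmem
    intro hdvd
    have h2 : orderOf d ∣ m := orderOf_dvd_of_pow_eq_one h1
    have h3 : p ∣ m := hdvd.trans h2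
    have := Nat.Coprime.eq_one_of_dvd (Nat.coprime_comm.1 hVc) h3
    exact hp.one_lt.ne' this
  have hPel : ∀ c : C, (∃ j : ℕ, orderOf c = p ^ j) → (c : G) ∈ (P : Subgroup G) := by
    rintro c ⟨j, hj⟩
    have hcop : m.Coprime (orderOf c) := by
      rw [hj]; exact Nat.Coprime.pow_right j hVc
    obtain ⟨m', hm'⟩ := exists_pow_eq_self_of_coprime hcop
    rw [← hm']
    exact (P : Subgroup G).pow_mem (hA c) m'
  refine ⟨V, hPC, hcomm, hcompl, ?_, ?_, ?_, ?_, ?_⟩
  · -- normC
    intro y hy c hc
    rw [hC, Subgroup.mem_centralizer_iff]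
    intro x hx
    have hx' : y⁻¹ * x * y ∈ (P : Subgroup G) := (Subgroup.mem_normalizer_iff''.1 hy x).1 hx
    have := hcomm _ hx' c hc
    calc x * (y * c * y⁻¹) = y * ((y⁻¹ * x * y) * c) * y⁻¹ := by group
      _ = y * (c * (y⁻¹ * x * y)) * y⁻¹ := by rw [this]
      _ = y * c * y⁻¹ * x := by group
  · intro y hy x hx
    exact (Subgroup.mem_normalizer_iff.1 hy x).1 hx
  · -- TI
    intro g d hd hg hgV
    have h1 := hB d hd
    have h2 := hB _ hgV
    have hx1 : ((d ^ m : C) : G) ≠ 1 := fun hh => h1 (Subtype.ext hh)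
    have hx2 : (((⟨g * d * g⁻¹, hg⟩ : C) ^ m : C) : G) ≠ 1 := fun hh => h2 (Subtype.ext hh)
    have e : (((⟨g * d * g⁻¹, hg⟩ : C) ^ m : C) : G) = g * ((d ^ m : C) : G) * g⁻¹ := by
      push_cast
      rw [conj_pow]
    have c1 := hstar _ (hA d) hx1
    have c2 := hstar _ (hA ⟨g * d * g⁻¹, hg⟩) hx2
    rw [e] at c2
    apply mem_normalizer_of_conj_mem
    intro y hy
    have hyC : y ∈ Subgroup.centralizer ({((d ^ m : C) : G)} : Set G) := by rw [c1]; exact hPC hy
    have hyC' : g * y * g⁻¹ ∈ C := by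
      rw [← c2, Subgroup.mem_centralizer_singleton_iff]
      have := Subgroup.mem_centralizer_singleton_iff.1 hyC
      calc g * y * g⁻¹ * (g * ((d ^ m : C) : G) * g⁻¹) = g * (y * ((d ^ m : C) : G)) * g⁻¹ := by group
        _ = g * (((d ^ m : C) : G) * y) * g⁻¹ := by rw [this]
        _ = g * ((d ^ m : C) : G) * g⁻¹ * (g * y * g⁻¹) := by group
    refine hPel ⟨g * y * g⁻¹, hyC'⟩ ?_
    obtain ⟨j, hj⟩ := (IsPGroup.iff_orderOf.1 P.2) ⟨y, hy⟩
    refine ⟨j, ?_⟩
    rw [← Subgroup.orderOf_coe] at hj ⊢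
    have e2 : g * y * g⁻¹ = MulAut.conj g y := rfl
    show orderOf (g * y * g⁻¹) = _
    rw [e2, MulEquiv.orderOf_eq]
    exact hj
  · -- free
    intro y _ x hx hx1 hyx
    rw [← hstar x hx hx1, Subgroup.mem_centralizer_singleton_iff]
    calc y * x = y * x * y⁻¹ * y := by group
      _ = x * y := by rw [hyx]
  · rw [Subgroup.relIndex, ← Nat.card_congr (Subgroup.subgroupOfEquivOfLe hCN).toEquiv]
    exact (Subgroup.index_mul_card _).symm

include hstar in
/-- `|N : C|` divides `|P| - 1` -/
theorem relIndex_dvd : (Subgroup.centralizer ((P : Subgroup G) : Set G)).relIndex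
    (Subgroup.normalizer ((P : Subgroup G) : Set G)) ∣ Nat.card P - 1 := by
  set C := Subgroup.centralizer ((P : Subgroup G) : Set G) with hC
  set N := Subgroup.normalizer ((P : Subgroup G) : Set G) with hN
  let _ : MulAction N G := MulAction.compHom G ((MulAut.conj : G →* MulAut G).comp N.subtype)
  have hsm : ∀ (y : N) (x : G), y • x = (y : G) * x * (y : G)⁻¹ := fun _ _ => rfl
  have h1 := Helper26.FrobSection.dvd_ncard_of_orbits (G := N) (C.relIndex N)
    (((P : Subgroup G) : Set G) \ {1}).ncard (((P : Subgroup G) : Set G) \ {1}) (Set.toFinite _) le_rfl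
    ?_ ?_
  · rwa [Set.ncard_sdiff_singleton_of_mem (Subgroup.one_mem _)] at h1
  · rintro y x ⟨hx, hx1⟩
    refine ⟨?_, ?_⟩
    · rw [hsm]; exact (Subgroup.mem_normalizer_iff.1 y.2 x).1 hx
    · intro hh
      apply hx1
      rw [Set.mem_singleton_iff, hsm] at hh
      have : x = (y : G)⁻¹ * ((y : G) * x * (y : G)⁻¹) * y := by group
      rw [this, hh]; simp
  · rintro x ⟨hx, hx1⟩
    rw [← MulAction.index_stabilizer, Subgroup.relIndex]
    congr 1
    ext y
    rw [MulAction.mem_stabilizer_iff, hsm, Subgroup.mem_subgroupOf,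
      ← hstar x hx (by simpa using hx1), Subgroup.mem_centralizer_singleton_iff]
    constructor
    · intro hh
      calc (y : G) * x = (y : G) * x * (y : G)⁻¹ * y := by group
        _ = x * y := by rw [hh]
    · intro hh
      rw [hh]; group

end

end Cfsg.Agent.Lib.Helper26.BL
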